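import Cfsg.Agent.Lib.Helper28.V2.ON122760DataL

set_option autoImplicit false
set_option maxRecDepth 100000

namespace Cfsg.Agent.Lib.Helper28.V2.ON122760

theorem lrel_12 : allRange (fun c => allList (fun w => L.checkRel w c) Cfsg.Agent.Lib.Helper28.ONPD.pd.words) 42852 3571 = true := by decide +kernel
theorem lrel_13 : allRange (fun c => allList (fun w => L.checkRel w c) Cfsg.Agent.Lib.Helper28.ONPD.pd.words) 46423 3571 = true := by decide +kernel
theorem lrel_14 : allRange (fun c => allList (fun w => L.checkRel w c) Cfsg.Agent.Lib.Helper28.ONPD.pd.words) 49994 3571 = true := by decide +kernel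
theorem lrel_15 : allRange (fun c => allList (fun w => L.checkRel w c) Cfsg.Agent.Lib.Helper28.ONPD.pd.words) 53565 3571 = true := by decide +kernel

end Cfsg.Agent.Lib.Helper28.V2.ON122760
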