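import Cfsg.Agent.Lib.Helper28.V2.ON122760DataU

set_option autoImplicit false
set_option maxRecDepth 100000

namespace Cfsg.Agent.Lib.Helper28.V2.ON122760

theorem chk_90 : allRange D.checkLabel 135000 1500 = true := by decide +kernel
theorem chk_91 : allRange D.checkLabel 136500 1500 = true := by decide +kernel
theorem chk_92 : allRange D.checkLabel 138000 1500 = true := by decide +kernel
theorem chk_93 : allRange D.checkLabel 139500 1500 = true := by decide +kernel
theorem chk_94 : allRange D.checkLabel 141000 1500 = true := by decide +kernel
theorem chk_95 : allRange D.checkLabel 142500 1500 = true := by decide +kernel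
theorem chk_96 : allRange D.checkLabel 144000 1500 = true := by decide +kernel
theorem chk_97 : allRange D.checkLabel 145500 1500 = true := by decide +kernel
theorem chk_98 : allRange D.checkLabel 147000 1500 = true := by decide +kernel

end Cfsg.Agent.Lib.Helper28.V2.ON122760
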