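import Cfsg.Agent.Lib.Helper28.V2.ON122760DataU

set_option autoImplicit false
set_option maxRecDepth 100000

namespace Cfsg.Agent.Lib.Helper28.V2.ON122760

theorem chk_99 : allRange D.checkLabel 148500 1500 = true := by decide +kernel
theorem chk_100 : allRange D.checkLabel 150000 1500 = true := by decide +kernel
theorem chk_101 : allRange D.checkLabel 151500 1500 = true := by decide +kernel
theorem chk_102 : allRange D.checkLabel 153000 1500 = true := by decide +kernel
theorem chk_103 : allRange D.checkLabel 154500 1500 = true := by decide +kernel
theorem chk_104 : allRange D.checkLabel 156000 1500 = true := by decide +kernel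
theorem chk_105 : allRange D.checkLabel 157500 1500 = true := by decide +kernel
theorem chk_106 : allRange D.checkLabel 159000 1500 = true := by decide +kernel
theorem chk_107 : allRange D.checkLabel 160500 1500 = true := by decide +kernel

end Cfsg.Agent.Lib.Helper28.V2.ON122760
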