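import Cfsg.Agent.Lib.Helper28.V2.ON122760DataU

set_option autoImplicit false
set_option maxRecDepth 100000

namespace Cfsg.Agent.Lib.Helper28.V2.ON122760

theorem chk_108 : allRange D.checkLabel 162000 1500 = true := by decide +kernel
theorem chk_109 : allRange D.checkLabel 163500 1500 = true := by decide +kernel
theorem chk_110 : allRange D.checkLabel 165000 1500 = true := by decide +kernel
theorem chk_111 : allRange D.checkLabel 166500 1500 = true := by decide +kernel
theorem chk_112 : allRange D.checkLabel 168000 1500 = true := by decide +kernel
theorem chk_113 : allRange D.checkLabel 169500 1500 = true := by decide +kernel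
theorem chk_114 : allRange D.checkLabel 171000 1500 = true := by decide +kernel
theorem chk_115 : allRange D.checkLabel 172500 1500 = true := by decide +kernel
theorem chk_116 : allRange D.checkLabel 174000 1500 = true := by decide +kernel

end Cfsg.Agent.Lib.Helper28.V2.ON122760
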