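import Cfsg.Agent.Lib.Helper28.V2.ON122760DataU

set_option autoImplicit false
set_option maxRecDepth 100000

namespace Cfsg.Agent.Lib.Helper28.V2.ON122760

theorem chk_117 : allRange D.checkLabel 175500 1500 = true := by decide +kernel
theorem chk_118 : allRange D.checkLabel 177000 1500 = true := by decide +kernel
theorem chk_119 : allRange D.checkLabel 178500 1500 = true := by decide +kernel
theorem chk_120 : allRange D.checkLabel 180000 1500 = true := by decide +kernel
theorem chk_121 : allRange D.checkLabel 181500 1500 = true := by decide +kernel
theorem chk_122 : allRange D.checkLabel 183000 1500 = true := by decide +kernel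
theorem chk_123 : allRange D.checkLabel 184500 1500 = true := by decide +kernel
theorem chk_124 : allRange D.checkLabel 186000 1500 = true := by decide +kernel
theorem chk_125 : allRange D.checkLabel 187500 1500 = true := by decide +kernel

end Cfsg.Agent.Lib.Helper28.V2.ON122760
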