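import Cfsg.Agent.Lib.Helper28.V2.ON122760DataU

set_option autoImplicit false
set_option maxRecDepth 100000

namespace Cfsg.Agent.Lib.Helper28.V2.ON122760

theorem chk_126 : allRange D.checkLabel 189000 1500 = true := by decide +kernel
theorem chk_127 : allRange D.checkLabel 190500 1500 = true := by decide +kernel
theorem chk_128 : allRange D.checkLabel 192000 1500 = true := by decide +kernel
theorem chk_129 : allRange D.checkLabel 193500 248 = true := by decide +kernel

end Cfsg.Agent.Lib.Helper28.V2.ON122760
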