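import Cfsg.Agent.Lib.Helper28.V2.ON122760DataU

set_option autoImplicit false
set_option maxRecDepth 100000

namespace Cfsg.Agent.Lib.Helper28.V2.ON122760

theorem chk_36 : allRange D.checkLabel 54000 1500 = true := by decide +kernel
theorem chk_37 : allRange D.checkLabel 55500 1500 = true := by decide +kernel
theorem chk_38 : allRange D.checkLabel 57000 1500 = true := by decide +kernel
theorem chk_39 : allRange D.checkLabel 58500 1500 = true := by decide +kernel
theorem chk_40 : allRange D.checkLabel 60000 1500 = true := by decide +kernel
theorem chk_41 : allRange D.checkLabel 61500 1500 = true := by decide +kernel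
theorem chk_42 : allRange D.checkLabel 63000 1500 = true := by decide +kernel
theorem chk_43 : allRange D.checkLabel 64500 1500 = true := by decide +kernel
theorem chk_44 : allRange D.checkLabel 66000 1500 = true := by decide +kernel

end Cfsg.Agent.Lib.Helper28.V2.ON122760
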