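import Cfsg.Agent.Lib.Helper28.V2.ON122760DataU

set_option autoImplicit false
set_option maxRecDepth 100000

namespace Cfsg.Agent.Lib.Helper28.V2.ON122760

theorem chk_45 : allRange D.checkLabel 67500 1500 = true := by decide +kernel
theorem chk_46 : allRange D.checkLabel 69000 1500 = true := by decide +kernel
theorem chk_47 : allRange D.checkLabel 70500 1500 = true := by decide +kernel
theorem chk_48 : allRange D.checkLabel 72000 1500 = true := by decide +kernel
theorem chk_49 : allRange D.checkLabel 73500 1500 = true := by decide +kernel
theorem chk_50 : allRange D.checkLabel 75000 1500 = true := by decide +kernel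
theorem chk_51 : allRange D.checkLabel 76500 1500 = true := by decide +kernel
theorem chk_52 : allRange D.checkLabel 78000 1500 = true := by decide +kernel
theorem chk_53 : allRange D.checkLabel 79500 1500 = true := by decide +kernel

end Cfsg.Agent.Lib.Helper28.V2.ON122760
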