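import Cfsg.Agent.Lib.Helper28.V2.ON122760DataU

set_option autoImplicit false
set_option maxRecDepth 100000

namespace Cfsg.Agent.Lib.Helper28.V2.ON122760

theorem chk_54 : allRange D.checkLabel 81000 1500 = true := by decide +kernel
theorem chk_55 : allRange D.checkLabel 82500 1500 = true := by decide +kernel
theorem chk_56 : allRange D.checkLabel 84000 1500 = true := by decide +kernel
theorem chk_57 : allRange D.checkLabel 85500 1500 = true := by decide +kernel
theorem chk_58 : allRange D.checkLabel 87000 1500 = true := by decide +kernel
theorem chk_59 : allRange D.checkLabel 88500 1500 = true := by decide +kernel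
theorem chk_60 : allRange D.checkLabel 90000 1500 = true := by decide +kernel
theorem chk_61 : allRange D.checkLabel 91500 1500 = true := by decide +kernel
theorem chk_62 : allRange D.checkLabel 93000 1500 = true := by decide +kernel

end Cfsg.Agent.Lib.Helper28.V2.ON122760
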