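import Cfsg.Agent.Lib.Helper28.V2.ON122760DataU

set_option autoImplicit false
set_option maxRecDepth 100000

namespace Cfsg.Agent.Lib.Helper28.V2.ON122760

theorem chk_63 : allRange D.checkLabel 94500 1500 = true := by decide +kernel
theorem chk_64 : allRange D.checkLabel 96000 1500 = true := by decide +kernel
theorem chk_65 : allRange D.checkLabel 97500 1500 = true := by decide +kernel
theorem chk_66 : allRange D.checkLabel 99000 1500 = true := by decide +kernel
theorem chk_67 : allRange D.checkLabel 100500 1500 = true := by decide +kernel
theorem chk_68 : allRange D.checkLabel 102000 1500 = true := by decide +kernel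
theorem chk_69 : allRange D.checkLabel 103500 1500 = true := by decide +kernel
theorem chk_70 : allRange D.checkLabel 105000 1500 = true := by decide +kernel
theorem chk_71 : allRange D.checkLabel 106500 1500 = true := by decide +kernel

end Cfsg.Agent.Lib.Helper28.V2.ON122760
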