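import Cfsg.Agent.Lib.Helper28.V2.ON122760DataU

set_option autoImplicit false
set_option maxRecDepth 100000

namespace Cfsg.Agent.Lib.Helper28.V2.ON122760

theorem chk_72 : allRange D.checkLabel 108000 1500 = true := by decide +kernel
theorem chk_73 : allRange D.checkLabel 109500 1500 = true := by decide +kernel
theorem chk_74 : allRange D.checkLabel 111000 1500 = true := by decide +kernel
theorem chk_75 : allRange D.checkLabel 112500 1500 = true := by decide +kernel
theorem chk_76 : allRange D.checkLabel 114000 1500 = true := by decide +kernel
theorem chk_77 : allRange D.checkLabel 115500 1500 = true := by decide +kernel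
theorem chk_78 : allRange D.checkLabel 117000 1500 = true := by decide +kernel
theorem chk_79 : allRange D.checkLabel 118500 1500 = true := by decide +kernel
theorem chk_80 : allRange D.checkLabel 120000 1500 = true := by decide +kernel

end Cfsg.Agent.Lib.Helper28.V2.ON122760
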