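import Cfsg.Agent.Lib.Helper28.V2.ON122760DataU

set_option autoImplicit false
set_option maxRecDepth 100000

namespace Cfsg.Agent.Lib.Helper28.V2.ON122760

theorem chk_81 : allRange D.checkLabel 121500 1500 = true := by decide +kernel
theorem chk_82 : allRange D.checkLabel 123000 1500 = true := by decide +kernel
theorem chk_83 : allRange D.checkLabel 124500 1500 = true := by decide +kernel
theorem chk_84 : allRange D.checkLabel 126000 1500 = true := by decide +kernel
theorem chk_85 : allRange D.checkLabel 127500 1500 = true := by decide +kernel
theorem chk_86 : allRange D.checkLabel 129000 1500 = true := by decide +kernel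
theorem chk_87 : allRange D.checkLabel 130500 1500 = true := by decide +kernel
theorem chk_88 : allRange D.checkLabel 132000 1500 = true := by decide +kernel
theorem chk_89 : allRange D.checkLabel 133500 1500 = true := by decide +kernel

end Cfsg.Agent.Lib.Helper28.V2.ON122760
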