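import Cfsg.Agent.Lib.Helper28.TCChain

/-!
# A checker for Todd–Coxeter certificates: upper bound for an index (helper28)

Labels are natural numbers `< m`; every label `j` has a representative `wrep j` in the group, given by
its definition `(par j, dcol j)`. The static table `tab x c` packs `(target + 1, rank)` for the
column (letter) `x` and label `c`; an entry says `H * wrep c * val x = H * wrep target`.
Each entry is justified with entries of smaller rank.
-/

set_option autoImplicit false

namespace Cfsg.Agent.Lib.Helper28.V2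

/-- the data of a certificate -/
structure UB where
  /-- main table: `(target+1) <<< rb ||| rank` -/
  tab : ℕ → ℕ → ℕ
  /-- justification table: `start <<< pb ||| pid` -/
  aux : ℕ → ℕ → ℕ
  /-- definition table: `par <<< 6 ||| col` -/
  dinfo : ℕ → ℕ
  rb : ℕ
  RM : ℕ
  pb : ℕ
  PM : ℕ
  /-- number of labels -/
  m : ℕ
  /-- number of generator letters; the letter `K` is the empty letter -/
  K : ℕ
  /-- number of all letters -/
  Kall : ℕ
  /-- word triples `(u₁, x, u₂)` with `u₁ x = u₂` in the group -/
  pairs : List (List ℕ × ℕ × List ℕ)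
  /-- letters lying in the subgroup -/
  isSub : ℕ → Bool
  /-- fuel for resolving dead labels -/
  fuel : ℕ

/-- follow the empty letter, using only entries of rank `< s` -/
noncomputable def res (tab : ℕ → ℕ → ℕ) (rb RM K s : ℕ) (fuel : ℕ) : ℕ → ℕ :=
  Nat.rec (motive := fun _ => ℕ → ℕ) (fun t => t)
    (fun _ ih t => Nat.rec (motive := fun _ => ℕ) t
      (fun t' _ => Bool.rec (motive := fun _ => ℕ) (ih t') t (Nat.ble s (Nat.land (tab K t) RM)))
      (Nat.shiftRight (tab K t) rb)) fuel

theorem res_zero (tab : ℕ → ℕ → ℕ) (rb RM K s t : ℕ) : res tab rb RM K s 0 t = t := rfl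

theorem res_succ (tab : ℕ → ℕ → ℕ) (rb RM K s f t : ℕ) : res tab rb RM K s (f + 1) t = t ∨
    ∃ t', Nat.shiftRight (tab K t) rb = t' + 1 ∧ Nat.land (tab K t) RM < s ∧
      res tab rb RM K s (f + 1) t = res tab rb RM K s f t' := by
  have e1 : res tab rb RM K s (f + 1) t = Nat.rec (motive := fun _ => ℕ) t
      (fun t' _ => Bool.rec (motive := fun _ => ℕ) (res tab rb RM K s f t') t
        (Nat.ble s (Nat.land (tab K t) RM))) (Nat.shiftRight (tab K t) rb) := rfl
  cases ht : Nat.shiftRight (tab K t) rb with
  | zero => left; rw [e1, ht]; rfl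
  | succ t' =>
    cases hb : Nat.ble s (Nat.land (tab K t) RM) with
    | true => left; rw [e1, ht, hb]
    | false =>
      right
      refine ⟨t', rfl, ?_, by rw [e1, ht, hb]⟩
      by_contra hcon
      have : Nat.ble s (Nat.land (tab K t) RM) = true := Nat.ble_eq_true_of_le (Nat.le_of_not_lt hcon)
      rw [this] at hb; exact absurd hb (by simp)

/-- tracing a word through the table, using only entries of rank `< s` and resolving dead labels after each
step; result is `label + 1`, or `0` -/
noncomputable def trace (tab : ℕ → ℕ → ℕ) (rb RM K fuel s : ℕ) (w : List ℕ) : ℕ → ℕ :=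
  List.rec (motive := fun _ => ℕ → ℕ) (fun c => Nat.succ c)
    (fun x _ ih c => Bool.rec (motive := fun _ => ℕ)
      (Nat.rec (motive := fun _ => ℕ) 0 (fun t _ => force (res tab rb RM K s fuel t) ih)
        (Nat.shiftRight (tab x c) rb)) 0
      (Nat.ble s (Nat.land (tab x c) RM))) w

theorem trace_nil (tab : ℕ → ℕ → ℕ) (rb RM K fuel s c : ℕ) : trace tab rb RM K fuel s [] c = c + 1 := rfl

theorem trace_cons {tab : ℕ → ℕ → ℕ} {rb RM K fuel s x c e : ℕ} {w : List ℕ}
    (h : trace tab rb RM K fuel s (x :: w) c = e + 1) :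
    Nat.land (tab x c) RM < s ∧ ∃ t, Nat.shiftRight (tab x c) rb = t + 1 ∧
      trace tab rb RM K fuel s w (res tab rb RM K s fuel t) = e + 1 := by
  have e1 : trace tab rb RM K fuel s (x :: w) c = Bool.rec (motive := fun _ => ℕ)
      (Nat.rec (motive := fun _ => ℕ) 0
        (fun t _ => force (res tab rb RM K s fuel t) (trace tab rb RM K fuel s w))
        (Nat.shiftRight (tab x c) rb)) 0
      (Nat.ble s (Nat.land (tab x c) RM)) := rfl
  rw [e1] at h
  cases hb : Nat.ble s (Nat.land (tab x c) RM) with
  | true => rw [hb] at h; exact absurd h (by simp)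
  | false =>
    rw [hb] at h
    have hlt : Nat.land (tab x c) RM < s := by
      by_contra hcon
      have : Nat.ble s (Nat.land (tab x c) RM) = true := Nat.ble_eq_true_of_le (Nat.le_of_not_lt hcon)
      rw [this] at hb; exact absurd hb (by simp)
    refine ⟨hlt, ?_⟩
    cases ht : Nat.shiftRight (tab x c) rb with
    | zero => rw [ht] at h; exact absurd h (by simp)
    | succ t =>
      rw [ht] at h
      refine ⟨t, rfl, ?_⟩
      have h' : force (res tab rb RM K s fuel t) (trace tab rb RM K fuel s w) = e + 1 := h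
      rwa [force_eq] at h'

namespace UB

variable (D : UB)

/-- target + 1 -/
def tg (x c : ℕ) : ℕ := Nat.shiftRight (D.tab x c) D.rb
/-- rank -/
def rk (x c : ℕ) : ℕ := Nat.land (D.tab x c) D.RM
/-- parent of a label -/
def par (j : ℕ) : ℕ := Nat.shiftRight (D.dinfo j) 6
/-- defining letter of a label -/
def dcol (j : ℕ) : ℕ := Nat.land (D.dinfo j) 63

/-- the check of the entry `(x, c)` -/
noncomputable def checkEntry (x c : ℕ) : Bool :=
  natCase true (fun j =>
    Nat.blt j D.m &&
      natCase
        (Nat.beq (Nat.shiftRight (D.dinfo j) 6) c && (Nat.beq (Nat.land (D.dinfo j) 63) x && Nat.blt c j))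
        (fun p1 => natCase
          (Nat.beq c 0 && (Nat.beq j 0 && D.isSub x))
          (fun p =>
            Nat.blt (Nat.shiftRight (D.aux x c) D.pb) D.m &&
            (Nat.beq (nth D.pairs ([], D.K, []) p).2.1 x &&
            (Nat.beq (trace D.tab D.rb D.RM D.K D.fuel (Nat.land (D.tab x c) D.RM) (nth D.pairs ([], D.K, []) p).1
                (Nat.shiftRight (D.aux x c) D.pb)) (Nat.succ c) &&
             Nat.beq (trace D.tab D.rb D.RM D.K D.fuel (Nat.land (D.tab x c) D.RM) (nth D.pairs ([], D.K, []) p).2.2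
                (Nat.shiftRight (D.aux x c) D.pb)) (Nat.succ j))))
          p1)
        (Nat.land (D.aux x c) D.PM)) (Nat.shiftRight (D.tab x c) D.rb)

/-- all entries of a label -/
noncomputable def checkLabel (c : ℕ) : Bool := allBelow (fun x => D.checkEntry x c) D.Kall

/-- follow the empty letter until a live label is found: result `label + 1`, or `0` -/
noncomputable def resolve (fuel : ℕ) : ℕ → ℕ :=
  Nat.rec (motive := fun _ => ℕ → ℕ) (fun _ => 0)
    (fun _ ih t => Nat.rec (motive := fun _ => ℕ) (Nat.succ t) (fun e _ => ih e)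
      (Nat.shiftRight (D.tab D.K t) D.rb)) fuel

/-- a live label has a complete row, whose targets resolve -/
noncomputable def finalLabel (c : ℕ) : Bool :=
  natCase
    (allBelow (fun x => natCase false
      (fun t => Nat.blt 0 (D.resolve D.fuel t)) (Nat.shiftRight (D.tab x c) D.rb)) D.K)
    (fun _ => true) (Nat.shiftRight (D.tab D.K c) D.rb)

/-- number of live labels -/
noncomputable def liveCount : ℕ := countZero (fun c => Nat.shiftRight (D.tab D.K c) D.rb) D.m 0

end UB

section Sound

variable {G : Type*} [Group G]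

variable (D : UB) (H : Subgroup G) (val : ℕ → G)

/-- the hypotheses on the interpretation of the letters -/
structure UB.Interp : Prop where
  eps : val D.K = 1
  KltKall : D.K < D.Kall
  pairs : ∀ t ∈ D.pairs, (∀ y ∈ t.1, y < D.Kall) ∧ (∀ y ∈ t.2.2, y < D.Kall) ∧
    evalW val t.1 * val t.2.1 = evalW val t.2.2
  sub : ∀ x, D.isSub x = true → val x ∈ H
  check : ∀ c < D.m, D.checkLabel c = true

local notation "W" => wrep val D.par D.dcol

/-- an entry, read as a statement on cosets -/
def UB.Fact (c x t : ℕ) : Prop := W c * val x * (W t)⁻¹ ∈ H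

/-- all entries of rank `< s` are true -/
def UB.Good (s : ℕ) : Prop :=
  ∀ x < D.Kall, ∀ c < D.m, ∀ t, D.tg x c = t + 1 → D.rk x c < s → D.Fact H val c x t

variable {D H val}

theorem UB.Interp.entry (I : D.Interp H val) {x c : ℕ} (hx : x < D.Kall) (hc : c < D.m) :
    D.checkEntry x c = true :=
  allBelow_iff.mp (I.check c hc) x hx

theorem UB.Interp.range (I : D.Interp H val) {x c t : ℕ} (hx : x < D.Kall) (hc : c < D.m)
    (ht : D.tg x c = t + 1) : t < D.m := by
  have h := I.entry hx hc
  unfold UB.checkEntry at h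
  unfold UB.tg at ht
  rw [ht, natCase_succ, Bool.and_eq_true] at h
  exact lt_of_blt h.1

theorem UB.res_sound (I : D.Interp H val) {s : ℕ} (hG : D.Good H val s) (f : ℕ) {t : ℕ} (ht : t < D.m) :
    res D.tab D.rb D.RM D.K s f t < D.m ∧ W t * (W (res D.tab D.rb D.RM D.K s f t))⁻¹ ∈ H := by
  induction f generalizing t with
  | zero => rw [res_zero]; exact ⟨ht, by simp [H.one_mem]⟩
  | succ f ih =>
    rcases res_succ D.tab D.rb D.RM D.K s f t with h | ⟨t', h1, h2, h3⟩
    · rw [h]; exact ⟨ht, by simp [H.one_mem]⟩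
    · have ht' : t' < D.m := I.range I.KltKall ht h1
      obtain ⟨a, b⟩ := ih ht'
      rw [h3]
      refine ⟨a, ?_⟩
      have hf : D.Fact H val t D.K t' := hG D.K I.KltKall t ht t' h1 h2
      unfold UB.Fact at hf
      rw [I.eps, mul_one] at hf
      have := H.mul_mem hf b
      convert this using 1
      group

theorem UB.trace_sound (I : D.Interp H val) {s : ℕ} (hG : D.Good H val s) (u : List ℕ)
    (hu : ∀ y ∈ u, y < D.Kall) {g e : ℕ} (hg : g < D.m)
    (h : trace D.tab D.rb D.RM D.K D.fuel s u g = e + 1) : W g * evalW val u * (W e)⁻¹ ∈ H := by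
  induction u generalizing g with
  | nil =>
    rw [trace_nil] at h
    have : g = e := by omega
    subst this
    simp [H.one_mem]
  | cons x u ih =>
    obtain ⟨hr, t, ht, h'⟩ := trace_cons h
    have hx : x < D.Kall := hu x List.mem_cons_self
    have htm : t < D.m := I.range hx hg ht
    have h1 : D.Fact H val g x t := hG x hx g hg t ht hr
    obtain ⟨hrm, hrs⟩ := UB.res_sound I hG D.fuel htm
    have h2 := ih (fun y hy => hu y (List.mem_cons_of_mem _ hy)) hrm h'
    have := H.mul_mem (H.mul_mem h1 hrs) h2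
    rw [evalW_cons]
    convert this using 1
    group

theorem UB.Interp.step (I : D.Interp H val) {s : ℕ} (hG : D.Good H val s) {x c t : ℕ}
    (hx : x < D.Kall) (hc : c < D.m) (ht : D.tg x c = t + 1) (hr : D.rk x c = s) :
    D.Fact H val c x t := by
  have h := I.entry hx hc
  have htm := I.range hx hc ht
  unfold UB.checkEntry at h
  unfold UB.tg at ht
  unfold UB.rk at hr
  rw [ht, natCase_succ, Bool.and_eq_true] at h
  replace h := h.2
  cases hp : Nat.land (D.aux x c) D.PM with
  | zero =>
    rw [hp, natCase_zero] at h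
    simp only [Bool.and_eq_true] at h
    obtain ⟨h1, h2, h3⟩ := h
    have h3' : c < t := lt_of_blt h3
    have hpar : D.par t = c := eq_of_nbeq h1
    have hcol : D.dcol t = x := eq_of_nbeq h2
    unfold UB.Fact
    rw [wrep_of_lt val D.par D.dcol (j := t) (by rw [hpar]; exact h3'), hpar, hcol]
    simp [H.one_mem]
  | succ p1 =>
    rw [hp, natCase_succ] at h
    cases p1 with
    | zero =>
      rw [natCase_zero] at h
      simp only [Bool.and_eq_true] at h
      obtain ⟨h1, h2, h3⟩ := h
      have h1 := eq_of_nbeq h1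
      have h2 := eq_of_nbeq h2
      subst h1 h2
      unfold UB.Fact
      rw [wrep_zero]
      simpa using I.sub x h3
    | succ p =>
      rw [natCase_succ] at h
      simp only [Bool.and_eq_true] at h
      obtain ⟨h1, h2, h3, h4⟩ := h
      have hg : Nat.shiftRight (D.aux x c) D.pb < D.m := lt_of_blt h1
      have h2 := eq_of_nbeq h2
      have h3 := eq_of_nbeq h3
      have h4 := eq_of_nbeq h4
      rw [hr] at h3 h4
      have hP : (∀ y ∈ (nth D.pairs ([], D.K, []) p).1, y < D.Kall) ∧
          (∀ y ∈ (nth D.pairs ([], D.K, []) p).2.2, y < D.Kall) ∧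
          evalW val (nth D.pairs ([], D.K, []) p).1 * val (nth D.pairs ([], D.K, []) p).2.1 =
            evalW val (nth D.pairs ([], D.K, []) p).2.2 :=
        nth_prop (P := fun t : List ℕ × ℕ × List ℕ => (∀ y ∈ t.1, y < D.Kall) ∧ (∀ y ∈ t.2.2, y < D.Kall) ∧
          evalW val t.1 * val t.2.1 = evalW val t.2.2) (by simp [I.eps]) I.pairs p
      obtain ⟨hu1, hu2, he⟩ := hP
      have a1 := UB.trace_sound I hG _ hu1 hg h3
      have a2 := UB.trace_sound I hG _ hu2 hg h4
      rw [h2] at he
      rw [← he] at a2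
      have := H.mul_mem (H.inv_mem a1) a2
      unfold UB.Fact
      convert this using 1
      group

theorem UB.Interp.good (I : D.Interp H val) (s : ℕ) : D.Good H val s := by
  induction s with
  | zero => intro x _ c _ t _ h; exact absurd h (Nat.not_lt_zero _)
  | succ s ih =>
    intro x hx c hc t ht hr
    rcases Nat.lt_succ_iff_lt_or_eq.mp hr with h | h
    · exact ih x hx c hc t ht h
    · exact I.step ih hx hc ht h

theorem UB.Interp.fact (I : D.Interp H val) {x c t : ℕ} (hx : x < D.Kall) (hc : c < D.m)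
    (ht : D.tg x c = t + 1) : D.Fact H val c x t :=
  I.good (D.rk x c + 1) x hx c hc t ht (Nat.lt_succ_self _)

theorem UB.Interp.resolve_sound (I : D.Interp H val) (f : ℕ) {t e : ℕ} (ht : t < D.m)
    (h : D.resolve f t = e + 1) : e < D.m ∧ D.tg D.K e = 0 ∧ W t * (W e)⁻¹ ∈ H := by
  induction f generalizing t with
  | zero => exact absurd h (by simp [UB.resolve])
  | succ f ih =>
    have e1 : D.resolve (f + 1) t = Nat.rec (motive := fun _ => ℕ) (Nat.succ t)
        (fun e _ => D.resolve f e) (Nat.shiftRight (D.tab D.K t) D.rb) := rfl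
    rw [e1] at h
    cases hz : Nat.shiftRight (D.tab D.K t) D.rb with
    | zero =>
      rw [hz] at h
      have : t = e := by simpa using h
      subst this
      exact ⟨ht, hz, by simp [H.one_mem]⟩
    | succ t' =>
      rw [hz] at h
      have ht' : t' < D.m := I.range I.KltKall ht hz
      obtain ⟨a, b, c⟩ := ih ht' h
      refine ⟨a, b, ?_⟩
      have hf : D.Fact H val t D.K t' := I.fact I.KltKall ht hz
      unfold UB.Fact at hf
      rw [I.eps, mul_one] at hf
      have := H.mul_mem hf c
      convert this using 1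
      group

/-- the set of live labels -/
noncomputable def UB.live (D : UB) : Finset ℕ := (Finset.range D.m).filter (fun c => D.tg D.K c = 0)

theorem UB.liveCount_eq (D : UB) : D.liveCount = D.live.card := by
  unfold UB.liveCount UB.live
  rw [countZero_eq, zero_add]
  rfl

/-- the covering theorem: every product of generator letters lies in `H * wrep c` for a live label `c` -/
theorem UB.Interp.cover (I : D.Interp H val) (hm : 0 < D.m) (h0 : D.tg D.K 0 = 0)
    (hfin : ∀ c < D.m, D.finalLabel c = true)
    (hinv : ∀ x < D.K, ∃ y < D.K, val y = (val x)⁻¹)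
    (g : G) (hg : g ∈ Subgroup.closure (val '' {x | x < D.K})) :
    ∃ c ∈ D.live, g * (W c)⁻¹ ∈ H := by
  have hKK : ∀ x < D.K, x < D.Kall := fun x hx => lt_trans hx I.KltKall
  -- one step
  have stepx : ∀ (g : G) (x : ℕ), x < D.K → (∃ c ∈ D.live, g * (W c)⁻¹ ∈ H) →
      ∃ c ∈ D.live, g * val x * (W c)⁻¹ ∈ H := by
    rintro g x hx ⟨c, hc, hgc⟩
    have hcm : c < D.m := Finset.mem_range.mp (Finset.mem_filter.mp hc).1
    have hlive : D.tg D.K c = 0 := (Finset.mem_filter.mp hc).2
    have hf := hfin c hcm
    unfold UB.finalLabel at hf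
    unfold UB.tg at hlive
    rw [hlive, natCase_zero] at hf
    have hfx := allBelow_iff.mp hf x hx
    cases ht : Nat.shiftRight (D.tab x c) D.rb with
    | zero => rw [ht, natCase_zero] at hfx; exact absurd hfx (by simp)
    | succ t =>
      rw [ht, natCase_succ] at hfx
      have hpos : 0 < D.resolve D.fuel t := lt_of_blt hfx
      obtain ⟨e, he⟩ : ∃ e, D.resolve D.fuel t = e + 1 := ⟨D.resolve D.fuel t - 1, by omega⟩
      have htm : t < D.m := I.range (hKK x hx) hcm ht
      obtain ⟨a, b, c'⟩ := I.resolve_sound D.fuel htm he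
      refine ⟨e, Finset.mem_filter.mpr ⟨Finset.mem_range.mpr a, b⟩, ?_⟩
      have hfact : D.Fact H val c x t := I.fact (hKK x hx) hcm ht
      have := H.mul_mem (H.mul_mem hgc hfact) c'
      convert this using 1
      group
  -- the base point
  have base : ∃ c ∈ D.live, (1 : G) * (W c)⁻¹ ∈ H := by
    exact ⟨0, Finset.mem_filter.mpr ⟨Finset.mem_range.mpr hm, h0⟩, by rw [wrep_zero]; simp [H.one_mem]⟩
  refine Subgroup.closure_induction_right (p := fun g _ => ∃ c ∈ D.live, g * (W c)⁻¹ ∈ H) base ?_ ?_ hg
  · rintro g _ y ⟨x, hx, rfl⟩ ih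
    exact stepx g x hx ih
  · rintro g _ y ⟨x, hx, rfl⟩ ih
    obtain ⟨x', hx', e⟩ := hinv x hx
    rw [← e]
    exact stepx g x' hx' ih

end Sound

end Cfsg.Agent.Lib.Helper28.V2

namespace Cfsg.Agent.Lib.Helper28.V2

section Index

variable {G : Type*} [Group G] {D : UB} {H : Subgroup G} {val : ℕ → G}

/-- the index bound -/
theorem UB.Interp.index_le (I : D.Interp H val) (hm : 0 < D.m) (h0 : D.tg D.K 0 = 0)
    (hfin : ∀ c < D.m, D.finalLabel c = true)
    (hinv : ∀ x < D.K, ∃ y < D.K, val y = (val x)⁻¹)
    (htop : Subgroup.closure (val '' {x | x < D.K}) = ⊤) :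
    H.index ≠ 0 ∧ H.index ≤ D.liveCount := by
  let f : D.live → G ⧸ H := fun c => (((wrep val D.par D.dcol c.1)⁻¹ : G) : G ⧸ H)
  have hf : Function.Surjective f := by
    intro q
    induction q using QuotientGroup.induction_on with
    | H g =>
      obtain ⟨c, hc, h⟩ := I.cover hm h0 hfin hinv g⁻¹ (by rw [htop]; exact Subgroup.mem_top _)
      refine ⟨⟨c, hc⟩, ?_⟩
      show (((wrep val D.par D.dcol c)⁻¹ : G) : G ⧸ H) = (g : G ⧸ H)
      rw [QuotientGroup.eq, inv_inv]
      have := H.inv_mem h
      simpa using this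
  have hfinite : Finite (G ⧸ H) := Finite.of_surjective f hf
  refine ⟨?_, ?_⟩
  · have : 0 < Nat.card (G ⧸ H) := Nat.card_pos
    exact Nat.pos_iff_ne_zero.mp this
  · have := Nat.card_le_card_of_surjective f hf
    rw [UB.liveCount_eq]
    have h2 : Nat.card (G ⧸ H) ≤ D.live.card := by simpa using this
    exact h2

end Index

section Card

variable {G : Type*} [Group G] {D : UB} {H : Subgroup G} {val : ℕ → G}

/-- the order bound from the covering theorem -/
theorem UB.Interp.card_le (I : D.Interp H val) (hm : 0 < D.m) (h0 : D.tg D.K 0 = 0)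
    (hfin : ∀ c < D.m, D.finalLabel c = true)
    (hinv : ∀ x < D.K, ∃ y < D.K, val y = (val x)⁻¹) (hH : Finite H) :
    Finite (Subgroup.closure (val '' {x | x < D.K})) ∧
    Nat.card (Subgroup.closure (val '' {x | x < D.K})) ≤ D.liveCount * Nat.card H := by
  classical
  have hc : ∀ g : Subgroup.closure (val '' {x | x < D.K}),
      ∃ c ∈ D.live, g.1 * (wrep val D.par D.dcol c)⁻¹ ∈ H :=
    fun g => I.cover hm h0 hfin hinv g.1 g.2
  choose f hf1 hf2 using hc
  let F : Subgroup.closure (val '' {x | x < D.K}) → D.live × H :=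
    fun g => (⟨f g, hf1 g⟩, ⟨_, hf2 g⟩)
  have hF : Function.Injective F := by
    intro a b hab
    have h1 : f a = f b := congrArg (fun t => t.1.1) hab
    have h2 : a.1 * (wrep val D.par D.dcol (f a))⁻¹ = b.1 * (wrep val D.par D.dcol (f b))⁻¹ :=
      congrArg (fun t => t.2.1) hab
    rw [h1] at h2
    exact Subtype.ext (mul_right_cancel h2)
  refine ⟨Finite.of_injective F hF, ?_⟩
  have h3 := Nat.card_le_card_of_injective F hF
  rw [Nat.card_prod] at h3
  rw [UB.liveCount_eq]
  simpa using h3

end Card

end Cfsg.Agent.Lib.Helper28.V2
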