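import Cfsg.Agent.Lib.Helper28.TCGlue
import Cfsg.Agent.Lib.Helper28.V2.TCUpper

/-!
# Index of a subgroup of a presented group from certificates (helper28)
-/

set_option autoImplicit false

namespace Cfsg.Agent.Lib.Helper28.V2

open Cfsg.Spor

/-- a coset enumeration problem with its certificates -/
structure Prob (α : Type) [DecidableEq α] where
  P : PD α
  D : UB
  L : LB
  /-- the long subgroup generators, which get letters of their own -/
  sigE : List WExp
  /-- all subgroup generators -/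
  subE : List WExp
  pairsC : List ((List ℕ × ℕ × List ℕ) × ℕ)
  n : ℕ

namespace Prob

variable {α : Type} [DecidableEq α] (Q : Prob α)

/-- the presented group -/
abbrev Grp : Type := PresentedGroup Q.P.rels

/-- values of the letters -/
noncomputable def val (x : ℕ) : Q.Grp :=
  if x < Q.P.K then PresentedGroup.mk Q.P.rels (Q.P.lfree x)
  else if x = Q.P.K then 1
  else if (x - Q.P.K) % 2 = 1 then
    PresentedGroup.mk Q.P.rels ((Q.sigE.getD ((x - Q.P.K - 1) / 2) (WExp.pow (WExp.g 0) 0)).value Q.P.lfree)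
  else (PresentedGroup.mk Q.P.rels ((Q.sigE.getD ((x - Q.P.K - 1) / 2) (WExp.pow (WExp.g 0) 0)).value Q.P.lfree))⁻¹

/-- inverse letters -/
def invA (x : ℕ) : ℕ :=
  if x < Q.P.K then Q.P.inv x else if x = Q.P.K then x else if (x - Q.P.K) % 2 = 1 then x + 1 else x - 1

/-- relator words, with those defining the extra letters -/
def relW : List (List ℕ) :=
  Q.P.words ++ Q.sigE.zipIdx.map (fun p => p.1.word Q.P.inv ++ [Q.P.K + 2 + 2 * p.2])

/-- number of all letters -/
def Kall : ℕ := Q.P.K + 1 + 2 * Q.sigE.length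

structure OK (S : Set (FreeGroup α)) : Prop where
  pd : Q.P.OK
  letters : ∀ x < Q.P.K, (∃ a, x = Q.P.enc a) ∨ (∃ a, x = Q.P.inv (Q.P.enc a) ∧ Q.P.lfree x = (FreeGroup.of a)⁻¹)
  DK : Q.D.K = Q.P.K
  DKall : Q.D.Kall = Q.Kall
  LK : Q.L.K = Q.P.K
  Linv : Q.L.inv = Q.P.inv
  Ln : Q.L.n = Q.n
  sigK : ∀ E ∈ Q.sigE, ∀ y ∈ E.word (fun x => x), y < Q.P.K
  subK : ∀ E ∈ Q.subE, ∀ y ∈ E.word (fun x => x), y < Q.P.K
  Dpairs : Q.D.pairs = Q.pairsC.map Prod.fst
  pairs : Q.pairsC.all (pairOK (relsAll Q.relW Q.invA Q.Kall) Q.invA Q.P.K Q.Kall) = true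
  relsK : ∀ r ∈ relsAll Q.relW Q.invA Q.Kall, ∀ y ∈ r, y < Q.Kall
  wordsK : ∀ w ∈ Q.P.words, ∀ y ∈ w, y < Q.P.K
  sub : ∀ x, Q.D.isSub x = true → Q.val x ∈ (Subgroup.closure S).map (PresentedGroup.mk Q.P.rels)
  check : ∀ c < Q.D.m, Q.D.checkLabel c = true
  hm : 0 < Q.D.m
  h0 : Q.D.tg Q.D.K 0 = 0
  fin : ∀ c < Q.D.m, Q.D.finalLabel c = true
  count : Q.D.liveCount = Q.n
  valid : Q.L.Valid
  lrel : ∀ w ∈ Q.P.words, ∀ c < Q.L.n, Q.L.checkRel w c = true
  S2 : ∀ s ∈ S, ∃ E ∈ Q.subE, s = E.value Q.P.lfree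
  lsub : ∀ E ∈ Q.subE, ptrace Q.L.pt (E.word Q.P.inv) 0 = 1

variable {Q} {S : Set (FreeGroup α)}

theorem val_lt {x : ℕ} (hx : x < Q.P.K) : Q.val x = PresentedGroup.mk Q.P.rels (Q.P.lfree x) := by
  unfold val; rw [if_pos hx]

theorem evalW_congr {Γ : Type*} [Group Γ] {f g : ℕ → Γ} {w : List ℕ} (h : ∀ y ∈ w, f y = g y) :
    evalW f w = evalW g w := by
  induction w with
  | nil => rfl
  | cons x w ih =>
    rw [evalW_cons, evalW_cons, h x List.mem_cons_self, ih (fun y hy => h y (List.mem_cons_of_mem _ hy))]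

theorem OK.base (h : Q.OK S) :
    (∀ x < Q.P.K, PresentedGroup.mk Q.P.rels (Q.P.lfree (Q.P.inv x)) =
      (PresentedGroup.mk Q.P.rels (Q.P.lfree x))⁻¹) ∧
    ∀ w ∈ Q.P.words, evalW (fun x => PresentedGroup.mk Q.P.rels (Q.P.lfree x)) w = 1 :=
  h.pd.words_of_sat (PresentedGroup.mk Q.P.rels) (fun _ hr => PresentedGroup.one_of_mem hr)

theorem OK.hinvA (h : Q.OK S) : ∀ x < Q.Kall, Q.val (Q.invA x) = (Q.val x)⁻¹ := by
  intro x _
  by_cases h1 : x < Q.P.K
  · have e : Q.invA x = Q.P.inv x := by unfold invA; rw [if_pos h1]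
    rw [e, val_lt h1, val_lt (h.pd.inv x h1).1]
    exact h.base.1 x h1
  · by_cases h2 : x = Q.P.K
    · have e : Q.invA x = x := by unfold invA; rw [if_neg h1, if_pos h2]
      rw [e]
      unfold val
      rw [if_neg h1, if_pos h2, inv_one]
    · by_cases h3 : (x - Q.P.K) % 2 = 1
      · have e : Q.invA x = x + 1 := by unfold invA; rw [if_neg h1, if_neg h2, if_pos h3]
        rw [e]
        unfold val
        rw [if_neg h1, if_neg h2, if_pos h3, if_neg (by omega), if_neg (by omega), if_neg (by omega)]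
        have : (x + 1 - Q.P.K - 1) / 2 = (x - Q.P.K - 1) / 2 := by omega
        rw [this]
      · have e : Q.invA x = x - 1 := by unfold invA; rw [if_neg h1, if_neg h2, if_neg h3]
        rw [e]
        unfold val
        rw [if_neg h1, if_neg h2, if_neg h3, if_neg (by omega), if_neg (by omega), if_pos (by omega)]
        have : (x - 1 - Q.P.K - 1) / 2 = (x - Q.P.K - 1) / 2 := by omega
        rw [this, inv_inv]

theorem OK.value_eq (h : Q.OK S) (E : WExp) (hE : ∀ y ∈ E.word (fun x => x), y < Q.P.K) :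
    PresentedGroup.mk Q.P.rels (E.value Q.P.lfree) = evalW Q.val (E.word Q.P.inv) := by
  rw [WExp.map_value, WExp.value_eq (fun x hx => (h.pd.inv x hx).1) h.base.1 E hE]
  apply evalW_congr
  intro y hy
  rw [val_lt (WExp.word_lt (fun x hx => (h.pd.inv x hx).1) E hE y hy)]

theorem OK.hrels (h : Q.OK S) : ∀ r ∈ Q.relW, evalW Q.val r = 1 := by
  intro r hr
  unfold relW at hr
  rcases List.mem_append.mp hr with hr | hr
  · rw [← h.base.2 r hr]
    apply evalW_congr
    intro y hy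
    exact val_lt (h.wordsK r hr y hy)
  · obtain ⟨⟨E, k⟩, hp, rfl⟩ := List.mem_map.mp hr
    have hk := List.mem_zipIdx hp
    simp only [zero_add, Nat.sub_zero] at hk
    obtain ⟨_, hk2, hk3⟩ := hk
    have hE : E ∈ Q.sigE := by rw [hk3]; exact List.getElem_mem _
    rw [evalW_append, ← h.value_eq E (h.sigK E hE), evalW_cons, evalW_nil, mul_one]
    unfold val
    rw [if_neg (by omega), if_neg (by omega), if_neg (by omega)]
    have e1 : (Q.P.K + 2 + 2 * k - Q.P.K - 1) / 2 = k := by omega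
    rw [e1, List.getD_eq_getElem _ _ hk2, ← hk3, mul_inv_cancel]

theorem OK.interp (h : Q.OK S) :
    Q.D.Interp ((Subgroup.closure S).map (PresentedGroup.mk Q.P.rels)) Q.val where
  eps := by rw [h.DK]; unfold val; rw [if_neg (lt_irrefl _), if_pos rfl]
  KltKall := by rw [h.DK, h.DKall]; unfold Kall; omega
  pairs := by
    intro t ht
    rw [h.Dpairs] at ht
    obtain ⟨tc, htc, rfl⟩ := List.mem_map.mp ht
    have := List.all_eq_true.mp h.pairs tc htc
    rw [h.DKall]
    exact pairOK_sound h.hinvA (by unfold val; rw [if_neg (lt_irrefl _), if_pos rfl])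
      (evalW_relsAll h.hinvA h.hrels) h.relsK this
  sub := h.sub
  check := h.check

/-- generator images of the permutation representation -/
noncomputable def pf (h : Q.OK S) (a : α) : Equiv.Perm ℕ := (LB.perm h.valid (Q.P.enc a))⁻¹

theorem OK.lift_lfree (h : Q.OK S) {x : ℕ} (hx : x < Q.P.K) :
    FreeGroup.lift (pf h) (Q.P.lfree x) = (LB.perm h.valid x)⁻¹ := by
  rcases h.letters x hx with ⟨a, rfl⟩ | ⟨a, rfl, h2⟩
  · rw [(h.pd.enc a).1, FreeGroup.lift_apply_of]; rfl
  · rw [h2, map_inv, FreeGroup.lift_apply_of]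
    have := LB.perm_inv h.valid (x := Q.P.enc a) (by rw [h.LK]; exact (h.pd.enc a).2)
    rw [h.Linv] at this
    rw [this]; rfl

theorem OK.sat (h : Q.OK S) : ∀ r ∈ Q.P.rels, FreeGroup.lift (pf h) r = 1 := by
  apply h.pd.sat_of_words
  intro w hw
  have e : evalW (fun x => FreeGroup.lift (pf h) (Q.P.lfree x)) w =
      evalW (fun x => (LB.perm h.valid x)⁻¹) w :=
    evalW_congr (fun y hy => h.lift_lfree (h.wordsK w hw y hy))
  rw [e]
  exact LB.evalW_perm_eq_one h.valid w (fun y hy => by rw [h.LK]; exact h.wordsK w hw y hy) (h.lrel w hw)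

/-- the permutation representation -/
noncomputable def phi (h : Q.OK S) : Q.Grp →* Equiv.Perm ℕ := PresentedGroup.toGroup h.sat

theorem OK.phi_mk (h : Q.OK S) (s : FreeGroup α) :
    phi h (PresentedGroup.mk Q.P.rels s) = FreeGroup.lift (pf h) s := rfl

theorem OK.phi_evalW (h : Q.OK S) (w : List ℕ) (hw : ∀ y ∈ w, y < Q.P.K) :
    phi h (evalW Q.val w) = evalW (fun x => (LB.perm h.valid x)⁻¹) w := by
  induction w with
  | nil => simp
  | cons x w ih =>
    rw [evalW_cons, evalW_cons, map_mul, ih (fun y hy => hw y (List.mem_cons_of_mem _ hy)),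
      val_lt (hw x List.mem_cons_self), h.phi_mk, h.lift_lfree (hw x List.mem_cons_self)]

theorem OK.top (h : Q.OK S) : Subgroup.closure (Q.val '' {x | x < Q.D.K}) = ⊤ := by
  rw [eq_top_iff]
  intro g _
  apply PresentedGroup.generated_by
  intro a
  apply Subgroup.subset_closure
  refine ⟨Q.P.enc a, ?_, ?_⟩
  · show Q.P.enc a < Q.D.K
    rw [h.DK]; exact (h.pd.enc a).2
  · rw [val_lt (h.pd.enc a).2, (h.pd.enc a).1]; rfl

/-- the main theorem -/
theorem OK.index (h : Q.OK S) :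
    ((Subgroup.closure S).map (PresentedGroup.mk Q.P.rels)).index = Q.n ∧
    (∀ g, phi h g 0 = 0 → g ∈ (Subgroup.closure S).map (PresentedGroup.mk Q.P.rels)) ∧
    (∀ g, phi h g 0 < Q.n) ∧ (∀ g ∈ (Subgroup.closure S).map (PresentedGroup.mk Q.P.rels), phi h g 0 = 0) ∧
    ∀ c < Q.n, ∃ g, phi h g 0 = c := by
  have hH : ∀ g ∈ (Subgroup.closure S).map (PresentedGroup.mk Q.P.rels), phi h g 0 = 0 := by
    have hle : (Subgroup.closure S).map (PresentedGroup.mk Q.P.rels) ≤
        (MulAction.stabilizer (Equiv.Perm ℕ) (0 : ℕ)).comap (phi h) := by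
      rw [Subgroup.map_le_iff_le_comap, Subgroup.closure_le]
      intro s hs
      obtain ⟨E, hE, rfl⟩ := h.S2 s hs
      show phi h (PresentedGroup.mk Q.P.rels (E.value Q.P.lfree)) • (0 : ℕ) = 0
      have hw := WExp.word_lt (fun x hx => (h.pd.inv x hx).1) E (h.subK E hE)
      rw [h.value_eq E (h.subK E hE), h.phi_evalW _ hw, Equiv.Perm.smul_def]
      refine (Equiv.Perm.inv_eq_iff_eq.mp ?_).symm
      rw [LB.evalW_perm h.valid _ (fun y hy => by rw [h.LK]; exact hw y hy)]
      have h1 := h.lsub E hE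
      have hn : 0 < Q.L.n := by
        by_contra hcon
        have hz : Q.n = 0 := by rw [← h.Ln]; omega
        have hc := h.count
        rw [hz, UB.liveCount_eq, Finset.card_eq_zero] at hc
        have : (0 : ℕ) ∈ Q.D.live := Finset.mem_filter.mpr ⟨Finset.mem_range.mpr h.hm, h.h0⟩
        rw [hc] at this
        exact absurd this (by simp)
      rw [h.valid.ptrace_eq _ (fun y hy => by rw [h.LK]; exact hw y hy) hn] at h1
      omega
    intro g hg
    exact hle hg
  have htr : ∀ c < Q.n, ∃ g, phi h g 0 = c := by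
    intro c hc
    obtain ⟨w, hw, e⟩ := h.valid.reach c (by rw [h.Ln]; exact hc)
    refine ⟨(evalW Q.val w)⁻¹, ?_⟩
    rw [map_inv, h.phi_evalW w (fun y hy => by rw [← h.LK]; exact hw y hy), LB.evalW_perm h.valid w hw, e]
  have hub := h.interp.index_le h.hm h.h0 h.fin (by
    intro x hx
    rw [h.DK] at hx ⊢
    refine ⟨Q.P.inv x, (h.pd.inv x hx).1, ?_⟩
    rw [val_lt hx, val_lt (h.pd.inv x hx).1]
    exact h.base.1 x hx) h.top
  rw [h.count] at hub
  obtain ⟨a, b, c⟩ := index_eq_of_bounds _ (phi h) Q.n hH htr hub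
  exact ⟨a, b, c, hH, htr⟩

end Prob

end Cfsg.Agent.Lib.Helper28.V2

namespace Cfsg.Agent.Lib.Helper28.V2.Prob

variable {α : Type} [DecidableEq α] {Q : Prob α}

theorem val_sig1 (k : ℕ) (hk : k < Q.sigE.length) :
    Q.val (Q.P.K + 1 + 2 * k) = PresentedGroup.mk Q.P.rels ((Q.sigE[k]).value Q.P.lfree) := by
  unfold val
  rw [if_neg (by omega), if_neg (by omega), if_pos (by omega)]
  have e1 : (Q.P.K + 1 + 2 * k - Q.P.K - 1) / 2 = k := by omega
  rw [e1, List.getD_eq_getElem _ _ hk]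

theorem val_sig2 (k : ℕ) (hk : k < Q.sigE.length) :
    Q.val (Q.P.K + 2 + 2 * k) = (PresentedGroup.mk Q.P.rels ((Q.sigE[k]).value Q.P.lfree))⁻¹ := by
  unfold val
  rw [if_neg (by omega), if_neg (by omega), if_neg (by omega)]
  have e1 : (Q.P.K + 2 + 2 * k - Q.P.K - 1) / 2 = k := by omega
  rw [e1, List.getD_eq_getElem _ _ hk]

end Cfsg.Agent.Lib.Helper28.V2.Prob
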