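import Cfsg.Agent.Lib.Helper28.V2.ON122760DataU
import Cfsg.Agent.Lib.Helper28.V2.ON122760DataL
import Cfsg.Agent.Lib.Helper28.V2.TCProb

set_option autoImplicit false
set_option maxRecDepth 100000

namespace Cfsg.Agent.Lib.Helper28.V2.ON122760

def sigE : List WExp := []
def subE : List WExp := [(.g 2), (.g 3), (.g 4), (.g 5), (.g 6), (.g 7)]
noncomputable def Q : Prob Cfsg.Spor.ON.Gen where
  P := Cfsg.Agent.Lib.Helper28.ONPD.pd
  D := D
  L := L
  sigE := sigE
  subE := subE
  pairsC := pairsC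
  n := 122760

end Cfsg.Agent.Lib.Helper28.V2.ON122760
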