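import Cfsg.Agent.Lib.Helper28.V2.TCBase
import Cfsg.Agent.Lib.Helper28.V2.TCSimple2

/-!
# Order and simplicity, with the order of the `p`-element checked on the base only (helper28)
-/

set_option autoImplicit false

namespace Cfsg.Agent.Lib.Helper28.V2.Prob

variable {α : Type} [DecidableEq α] {Q : Prob α} {S : Set (FreeGroup α)} (O : Orb)

theorem OK.simple' (h : Q.OK S) (hO : O.OK Q) (hS1 : ∀ E ∈ Q.subE, E.value Q.P.lfree ∈ S)
    (r : ℕ) (hoid : ∀ c < Q.n, O.oid c < r)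
    (hc0 : O.count Q 0 = 1) (h00 : O.oid 0 = 0) (hsum : ∑ k ∈ Finset.range r, O.count Q k = Q.n)
    (harith : ∀ I ∈ (Finset.range r).powerset, 0 ∈ I → (∑ k ∈ I, O.count Q k) ∣ Q.n →
      I = {0} ∨ I = Finset.range r)
    (N : ℕ) (hub : Finite (Sg Q.val (List.range Q.P.K)) ∧ Nat.card (Sg Q.val (List.range Q.P.K)) ≤ N)
    (levels : List Lev) (hchain : chainOK Q.L [] levels) (hprod : (levels.map Lev.cnt).prod = N)
    (hb : ∀ b ∈ levels.map Lev.b, b < Q.n)
    (p k j : ℕ) (hp : p.Prime) (hpk : p ^ k ∣ Q.n) (hN : ¬ p ^ (k + 1) ∣ N) (hN1 : 1 < N)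
    (xw : List ℕ) (hxw : ∀ y ∈ xw, y < Q.P.K)
    (hxchk : ∀ b ∈ levels.map Lev.b, ptrace Q.L.pt (List.replicate (p ^ j) xw).flatten b = b + 1)
    (Lk : Link) (hLk : Lk.OK (Q.P.words ++ [xw]) Q.P.inv Q.P.K (List.range Q.P.K) []) (hn : Lk.n = 1) :
    IsSimpleGroup Q.Grp ∧ Nat.card Q.Grp = N ∧ Function.Injective (phi h) := by
  rw [h.Sg_top] at hub
  have hfin : Finite Q.Grp := by
    have := hub.1
    exact Finite.of_injective (fun g => (⟨g, Subgroup.mem_top g⟩ : (⊤ : Subgroup Q.Grp)))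
      (fun a b hab => congrArg Subtype.val hab)
  have hub2 : Nat.card Q.Grp ≤ N := by
    have := hub.2
    rwa [Subgroup.card_top] at this
  have hlb := h.card_range_ge hfin levels hchain
  rw [hprod] at hlb
  obtain ⟨hcard, hinj⟩ := order_of_bounds (phi h) N hfin hub2 hlb
  refine ⟨?_, hcard, hinj⟩
  refine simple_of_normal_dichotomy (HS Q S) p k j hp ?_
    (h.normal_dichotomy O hO hS1 r hoid hc0 h00 hsum harith) (by rw [h.index.1]; exact hpk)
    (by rw [hcard]; exact hN) (evalW Q.val xw) ?_ (h.normalClosure_top xw Lk hLk hn) ?_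
  · intro M hM hMH
    rw [eq_bot_iff]
    intro m hm
    exact hinj (by rw [h.core M hM hMH m hm, map_one])
  · rw [← evalW_flatten_replicate]
    apply h.word_eq_one_of_base hinj N (by omega) hcard levels hchain hprod hb _ _ hxchk
    intro y hy
    simp only [List.mem_flatten, List.mem_replicate] at hy
    obtain ⟨l, ⟨_, rfl⟩, hy⟩ := hy
    exact hxw y hy
  · exact (Finite.one_lt_card_iff_nontrivial).mp (by rw [hcard]; exact hN1)

end Cfsg.Agent.Lib.Helper28.V2.Prob
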