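import Cfsg.Agent.Lib.Helper28.V2.ON122760
import Cfsg.Agent.Lib.Helper28.V2.ON122760Orb
import Cfsg.Agent.Lib.Helper28.V2.ON122760Stab
import Cfsg.Agent.Lib.Helper28.ON122760Coll
import Cfsg.Agent.Lib.Helper28.ONChain
import Cfsg.Agent.Lib.Helper28.V2.TCSimple3

set_option autoImplicit false
set_option maxRecDepth 100000

namespace Cfsg.Agent.Lib.Helper28.V2.ON122760

theorem hS1 : ∀ E ∈ Q.subE, E.value Q.P.lfree ∈ S := by
  intro E hE
  simp only [Q, subE, List.mem_cons, List.mem_nil_iff, or_false] at hE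
  rcases hE with rfl | rfl | rfl | rfl | rfl | rfl <;> simp [S, WExp.value, Q, Cfsg.Agent.Lib.Helper28.ONPD.pd, Cfsg.Agent.Lib.Helper28.ONPD.lfree]
theorem ub : Finite (Sg Q.val (List.range Q.P.K)) ∧ Nat.card (Sg Q.val (List.range Q.P.K)) ≤ 460815505920 := by
  obtain ⟨f, c⟩ := ONChain.bound_1 Q.val ok.val_words ok.val_inv
  obtain ⟨f', c'⟩ := ok.card_le_of_sub [2, 3, 4, 5, 6, 7] (by
    intro s hs
    simp only [S, Set.mem_insert_iff, Set.mem_singleton_iff] at hs
    rcases hs with rfl | rfl | rfl | rfl | rfl | rfl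
    · exact Subgroup.subset_closure ⟨2, by simp, Prob.val_lt (Q := Q) (by decide)⟩
    · exact Subgroup.subset_closure ⟨3, by simp, Prob.val_lt (Q := Q) (by decide)⟩
    · exact Subgroup.subset_closure ⟨4, by simp, Prob.val_lt (Q := Q) (by decide)⟩
    · exact Subgroup.subset_closure ⟨5, by simp, Prob.val_lt (Q := Q) (by decide)⟩
    · exact Subgroup.subset_closure ⟨6, by simp, Prob.val_lt (Q := Q) (by decide)⟩
    · exact Subgroup.subset_closure ⟨7, by simp, Prob.val_lt (Q := Q) (by decide)⟩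
    ) f
  exact ⟨f', le_trans c' (le_trans (Nat.mul_le_mul_left _ c) (by norm_num [Q]))⟩
theorem cnt_eq : ∀ k < 5, O.count Q k = [1, 58653, 52136, 5586, 6384].getD k 0 := by
  intro k hk
  interval_cases k
  · exact count_0
  · exact count_1
  · exact count_2
  · exact count_3
  · exact count_4
theorem arith0 : ∀ I ∈ (Finset.range 5).powerset, 0 ∈ I → (∑ k ∈ I, [1, 58653, 52136, 5586, 6384].getD k 0) ∣ 122760 →
    I = {0} ∨ I = Finset.range 5 := by decide +kernel
theorem sum_cnt (I : Finset ℕ) (hI : I ∈ (Finset.range 5).powerset) :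
    ∑ k ∈ I, O.count Q k = ∑ k ∈ I, [1, 58653, 52136, 5586, 6384].getD k 0 :=
  Finset.sum_congr rfl (fun k hk => cnt_eq k (Finset.mem_range.mp (Finset.mem_powerset.mp hI hk)))
theorem arith : ∀ I ∈ (Finset.range 5).powerset, 0 ∈ I → (∑ k ∈ I, O.count Q k) ∣ Q.n →
    I = {0} ∨ I = Finset.range 5 := by
  intro I hI h0 hd
  rw [sum_cnt I hI] at hd
  exact arith0 I hI h0 hd
theorem sum_all : ∑ k ∈ Finset.range 5, O.count Q k = Q.n := by
  rw [sum_cnt _ (Finset.mem_powerset.mpr (Finset.Subset.refl _))]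
  decide +kernel
def xw : List ℕ := [3, 4, 5, 0]
theorem x_chk : ∀ b ∈ levels.map Lev.b, ptrace Q.L.pt (List.replicate (5 ^ 1) xw).flatten b = b + 1 := by
  decide +kernel
theorem main : IsSimpleGroup Q.Grp ∧ Nat.card Q.Grp = 460815505920 ∧ Function.Injective (Prob.phi ok) :=
  Prob.OK.simple' O ok O_ok hS1 5 (fun c hc => lt_of_blt (allBelow_iff.mp oid_lt c hc)) count_0 oid_zero sum_all arith
    460815505920 ub levels chain_ok levels_prod base_lt 5 1 1 (by norm_num) (by decide +kernel) (by norm_num) (by norm_num)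
    xw (by decide +kernel) x_chk ON122760Coll.Lk ON122760Coll.ok rfl

end Cfsg.Agent.Lib.Helper28.V2.ON122760
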