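import Cfsg.Agent.Lib.Helper28.V2.ONSub
import Cfsg.Agent.Lib.Helper28.L37Mat

/-!
# The subgroup `L₃(7)` of index two in `⟨a, …, f⟩ ≤ O'N` (helper28)
-/

set_option autoImplicit false
set_option maxRecDepth 100000

namespace Cfsg.Agent.Lib.Helper28.V2.ON122760

/-- the letters of the presentation of `L₃(7)` as words in the generators of `O'N` -/
def exL : ℕ → List ℕ
  | 0 => [2, 3]
  | 1 => [3, 2]
  | 2 => [2, 4]
  | 3 => [4, 2]
  | 4 => [2, 5]
  | 5 => [5, 2]
  | 6 => [2, 6]
  | 7 => [6, 2]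
  | 8 => [2, 7]
  | 9 => [7, 2]
  | _ => []

/-- all words to be checked, expanded -/
def WL : List (List ℕ) :=
  (L37pPD.pd.words ++ (List.range 10).map (fun y => [y, L37pPD.pd.inv y])).map (fun w => w.flatMap exL)

theorem WL_chk : ∀ w ∈ WL, (∀ y ∈ w, y < 8) ∧ ∀ b ∈ levels.map Lev.b, ptrace L.pt w b = b + 1 := by
  decide +kernel

theorem WL_one {w : List ℕ} (hw : w ∈ L37pPD.pd.words ++ (List.range 10).map (fun y => [y, L37pPD.pd.inv y])) :
    evalW (fun x => evalW Q.val (exL x)) w = 1 := by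
  rw [evalW_flatMap]
  have h := WL_chk _ (List.mem_map_of_mem hw)
  exact word_one _ h.1 h.2

theorem embedL : ∃ f : L37p57.Q.Grp →* Q.Grp, Function.Injective f ∧
    ∀ x < 10, f (PresentedGroup.mk L37pPD.pd.rels (L37pPD.pd.lfree x)) = evalW Q.val (exL x) :=
  L37pPD.pd_ok.exists_embedding L37pPD.pd_wordsK L37pPD.pd_letters L37p57.main.1
    (fun x => evalW Q.val (exL x)) (fun w hw => WL_one (List.mem_append_left _ hw))
    (by
      intro y hy
      have h : evalW (fun x => evalW Q.val (exL x)) [y, L37pPD.pd.inv y] = 1 :=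
        WL_one (List.mem_append_right _ (List.mem_map_of_mem (List.mem_range.mpr hy)))
      rw [evalW_cons, evalW_cons, evalW_nil, mul_one] at h
      exact (inv_eq_of_mul_eq_one_right h).symm)
    0 (by decide) (ok.word_ne_one [2, 3] (by decide) 139 (by decide) (by decide +kernel))

theorem val_mem : ∀ y, 2 ≤ y → y < 8 → Q.val y ∈ Prob.HS Q S := by
  intro y h2 h8
  interval_cases y
  all_goals
    rw [Prob.val_lt (Q := Q) (by decide)]
    exact Subgroup.mem_map_of_mem _ (Subgroup.subset_closure (by simp [Q, ONPD.pd, ONPD.lfree]))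

theorem exL_mem : ∀ x < 10, evalW Q.val (exL x) ∈ Prob.HS Q S := by
  intro x hx
  interval_cases x
  all_goals
    simp only [exL, evalW_cons, evalW_nil, mul_one]
    exact Subgroup.mul_mem _ (val_mem _ (by norm_num) (by norm_num)) (val_mem _ (by norm_num) (by norm_num))

theorem L37_main : ∃ N : Subgroup (Prob.HS Q S), N.Normal ∧ N.index = 2 ∧
    Nonempty (N ≃* Matrix.ProjectiveSpecialLinearGroup (Fin 3) (ZMod 7)) := by
  obtain ⟨f, hf, hv⟩ := embedL
  obtain ⟨e⟩ := L37Mat.iso
  have hle : f.range ≤ Prob.HS Q S := by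
    rw [MonoidHom.range_eq_map, ← L37p57.ok.top, MonoidHom.map_closure, Subgroup.closure_le]
    rintro _ ⟨_, ⟨x, hx, rfl⟩, rfl⟩
    have hx' : x < 10 := hx
    rw [Helper28.Prob.val_lt (Q := L37p57.Q) hx']
    exact (hv x hx') ▸ exL_mem x hx'
  let E : L37p57.Q.Grp ≃* f.range := MonoidHom.ofInjective hf
  have hidx : (f.range.subgroupOf (Prob.HS Q S)).index = 2 := by
    have h1 : Nat.card (f.range.subgroupOf (Prob.HS Q S)) * (f.range.subgroupOf (Prob.HS Q S)).index =
        Nat.card (Prob.HS Q S) := Subgroup.card_mul_index _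
    have h2 : Nat.card (f.range.subgroupOf (Prob.HS Q S)) = 1876896 := by
      rw [Nat.card_congr (Subgroup.subgroupOfEquivOfLe hle).toEquiv, ← Nat.card_congr E.toEquiv]
      exact L37p57.main.2.1
    rw [h2, card_HS] at h1
    generalize (f.range.subgroupOf (Prob.HS Q S)).index = c at h1 ⊢
    omega
  exact ⟨f.range.subgroupOf (Prob.HS Q S), Subgroup.normal_of_index_eq_two hidx, hidx,
    ⟨(Subgroup.subgroupOfEquivOfLe hle).trans (E.symm.trans e)⟩⟩

end Cfsg.Agent.Lib.Helper28.V2.ON122760
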