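import Cfsg.Agent.Lib.Helper28.V2.ON122760Simple
import Cfsg.Agent.Lib.Helper28.J1p266Simple
import Cfsg.Agent.Lib.Helper28.M11p11Simple
import Cfsg.Agent.Lib.Helper28.Embed

/-!
# Subgroups `J₁` and `M₁₁` of the presented O'Nan group (helper28)
-/

set_option autoImplicit false
set_option maxRecDepth 100000

namespace Cfsg.Agent.Lib.Helper28.V2.ON122760

/-- a word fixing the three base points is trivial -/
theorem word_one (w : List ℕ) (hw : ∀ y ∈ w, y < 8)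
    (hchk : ∀ b ∈ levels.map Lev.b, ptrace L.pt w b = b + 1) : evalW Q.val w = 1 :=
  ok.word_eq_one_of_base main.2.2 460815505920 (by norm_num) main.2.1 levels chain_ok levels_prod base_lt w hw hchk

/-- the letters of the presentation as words in the generators of `O'N` -/
def exJ : ℕ → List ℕ
  | 0 => [2]
  | 1 => [2]
  | 2 => [2, 5, 3, 4, 7, 6, 0, 0, 5, 3, 5, 0, 3, 2, 1, 6, 5, 6, 4, 3, 5, 4, 1, 5, 3, 2, 7, 2, 4, 2, 3, 4, 2, 7, 2, 3, 5, 0, 4, 5, 3, 4, 6, 5, 6, 0, 2, 3, 1, 5, 3, 5, 1, 1, 6, 7, 4, 3, 5, 2]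
  | 3 => [2, 5, 3, 4, 7, 6, 0, 0, 5, 3, 5, 0, 3, 2, 1, 6, 5, 6, 4, 3, 5, 4, 1, 5, 3, 2, 7, 2, 4, 3, 2, 4, 2, 7, 2, 3, 5, 0, 4, 5, 3, 4, 6, 5, 6, 0, 2, 3, 1, 5, 3, 5, 1, 1, 6, 7, 4, 3, 5, 2]
  | _ => []

/-- all words to be checked, expanded -/
def WJ : List (List ℕ) :=
  (J1pPD.pd.words ++ (List.range 4).map (fun y => [y, J1pPD.pd.inv y])).map (fun w => w.flatMap exJ)

theorem WJ_chk : ∀ w ∈ WJ, (∀ y ∈ w, y < 8) ∧ ∀ b ∈ levels.map Lev.b, ptrace L.pt w b = b + 1 := by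
  decide +kernel

theorem WJ_one {w : List ℕ} (hw : w ∈ J1pPD.pd.words ++ (List.range 4).map (fun y => [y, J1pPD.pd.inv y])) :
    evalW (fun x => evalW Q.val (exJ x)) w = 1 := by
  rw [evalW_flatMap]
  have h := WJ_chk _ (List.mem_map_of_mem hw)
  exact word_one _ h.1 h.2

theorem embedJ : ∃ f : J1p266.Q.Grp →* Q.Grp, Function.Injective f := by
  obtain ⟨f, hf, _⟩ := J1pPD.pd_ok.exists_embedding J1pPD.pd_wordsK J1pPD.pd_letters J1p266.main.1
    (fun x => evalW Q.val (exJ x)) (fun w hw => WJ_one (List.mem_append_left _ hw))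
    (by
      intro y hy
      have h : evalW (fun x => evalW Q.val (exJ x)) [y, J1pPD.pd.inv y] = 1 :=
        WJ_one (List.mem_append_right _ (List.mem_map_of_mem (List.mem_range.mpr hy)))
      rw [evalW_cons, evalW_cons, evalW_nil, mul_one] at h
      exact (inv_eq_of_mul_eq_one_right h).symm)
    0 (by decide) (ok.word_ne_one [2] (by decide) 139 (by decide) (by decide +kernel))
  exact ⟨f, hf⟩

/-- the letters of the presentation as words in the generators of `O'N` -/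
def exM : ℕ → List ℕ
  | 0 => [2]
  | 1 => [2]
  | 2 => [5, 6, 2, 3, 0, 6, 4, 3, 5, 2, 0, 4, 7, 3, 6, 0, 4, 3, 2, 5, 2, 3, 0, 6, 2, 6, 5, 2, 1, 5, 6, 4, 5, 1, 3, 0, 2, 5, 6, 2, 6, 1, 3, 2, 5, 2, 3, 4, 1, 6, 3, 7, 4, 1, 2, 5, 3, 4, 6, 1, 3, 2, 6, 5]
  | 3 => [5, 6, 2, 3, 0, 6, 4, 3, 5, 2, 0, 4, 7, 3, 6, 0, 4, 3, 2, 5, 2, 3, 0, 6, 2, 6, 5, 2, 1, 3, 0, 5, 4, 6, 5, 0, 2, 5, 6, 2, 6, 1, 3, 2, 5, 2, 3, 4, 1, 6, 3, 7, 4, 1, 2, 5, 3, 4, 6, 1, 3, 2, 6, 5]
  | _ => []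

/-- all words to be checked, expanded -/
def WM : List (List ℕ) :=
  (M11pPD.pd.words ++ (List.range 4).map (fun y => [y, M11pPD.pd.inv y])).map (fun w => w.flatMap exM)

theorem WM_chk : ∀ w ∈ WM, (∀ y ∈ w, y < 8) ∧ ∀ b ∈ levels.map Lev.b, ptrace L.pt w b = b + 1 := by
  decide +kernel

theorem WM_one {w : List ℕ} (hw : w ∈ M11pPD.pd.words ++ (List.range 4).map (fun y => [y, M11pPD.pd.inv y])) :
    evalW (fun x => evalW Q.val (exM x)) w = 1 := by
  rw [evalW_flatMap]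
  have h := WM_chk _ (List.mem_map_of_mem hw)
  exact word_one _ h.1 h.2

theorem embedM : ∃ f : M11p11.Q.Grp →* Q.Grp, Function.Injective f := by
  obtain ⟨f, hf, _⟩ := M11pPD.pd_ok.exists_embedding M11pPD.pd_wordsK M11pPD.pd_letters M11p11.main.1
    (fun x => evalW Q.val (exM x)) (fun w hw => WM_one (List.mem_append_left _ hw))
    (by
      intro y hy
      have h : evalW (fun x => evalW Q.val (exM x)) [y, M11pPD.pd.inv y] = 1 :=
        WM_one (List.mem_append_right _ (List.mem_map_of_mem (List.mem_range.mpr hy)))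
      rw [evalW_cons, evalW_cons, evalW_nil, mul_one] at h
      exact (inv_eq_of_mul_eq_one_right h).symm)
    0 (by decide) (ok.word_ne_one [2] (by decide) 139 (by decide) (by decide +kernel))
  exact ⟨f, hf⟩

theorem card_HS : Nat.card (Prob.HS Q S) = 3753792 := by
  have h1 : Nat.card (Prob.HS Q S) * (Prob.HS Q S).index = Nat.card Q.Grp := (Prob.HS Q S).card_mul_index
  rw [main.2.1, ok.index.1] at h1
  have h2 : Q.n = 122760 := rfl
  rw [h2] at h1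
  generalize Nat.card (Prob.HS Q S) = c at h1 ⊢
  omega

end Cfsg.Agent.Lib.Helper28.V2.ON122760
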