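import Cfsg.Agent.Lib.Helper28.V2.TCUpper

/-!
# Links for the second version of the certificates (helper28)
-/

set_option autoImplicit false

namespace Cfsg.Agent.Lib.Helper28.V2

/-- a certificate for a presentation on renamed letters -/
structure Link2 where
  D : UB
  /-- new letters to old letters -/
  ren : ℕ → ℕ
  /-- inverse letters -/
  inv : ℕ → ℕ
  /-- relators, in new letters -/
  rels : List (List ℕ)
  pairsC : List ((List ℕ × ℕ × List ℕ) × ℕ)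
  /-- letters of the subgroup, new letters -/
  subL : List ℕ
  n : ℕ

namespace Link2

variable (Lk : Link2)

/-- all conditions -/
structure OK (W : List (List ℕ)) (oinv : ℕ → ℕ) (Kold : ℕ) (ΛA ΛB : List ℕ) : Prop where
  Kall : Lk.D.Kall = Lk.D.K + 1
  invK : ∀ x < Lk.D.K, Lk.inv x < Lk.D.K ∧ Lk.ren x < Kold ∧ Lk.ren (Lk.inv x) = oinv (Lk.ren x)
  invE : Lk.inv Lk.D.K = Lk.D.K
  relsIn : ∀ r ∈ Lk.rels, (∀ y ∈ r, y < Lk.D.K) ∧ r.map Lk.ren ∈ W
  Dpairs : Lk.D.pairs = Lk.pairsC.map Prod.fst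
  pairs : Lk.pairsC.all (pairOK (relsAll Lk.rels Lk.inv Lk.D.Kall) Lk.inv Lk.D.K Lk.D.Kall) = true
  relsK : ∀ r ∈ relsAll Lk.rels Lk.inv Lk.D.Kall, ∀ y ∈ r, y < Lk.D.Kall
  isSub : ∀ x, Lk.D.isSub x = true → x ∈ Lk.subL
  sub : ∀ x ∈ Lk.subL, x < Lk.D.K ∧ Lk.ren x ∈ ΛB
  check : ∀ c < Lk.D.m, Lk.D.checkLabel c = true
  gens : ∀ y ∈ ΛA, ∃ x < Lk.D.K, Lk.ren x = y
  hm : 0 < Lk.D.m
  h0 : Lk.D.tg Lk.D.K 0 = 0
  fin : ∀ c < Lk.D.m, Lk.D.finalLabel c = true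
  count : Lk.D.liveCount = Lk.n

variable {G : Type*} [Group G]

/-- values of the new letters -/
def val (v : ℕ → G) (x : ℕ) : G := if x < Lk.D.K then v (Lk.ren x) else 1

variable {Lk} {W : List (List ℕ)} {oinv : ℕ → ℕ} {Kold : ℕ} {ΛA ΛB : List ℕ}

theorem val_lt (v : ℕ → G) {x : ℕ} (hx : x < Lk.D.K) : Lk.val v x = v (Lk.ren x) := by
  unfold val; rw [if_pos hx]

theorem val_ge (v : ℕ → G) {x : ℕ} (hx : ¬ x < Lk.D.K) : Lk.val v x = 1 := by
  unfold val; rw [if_neg hx]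

theorem evalW_val (v : ℕ → G) (w : List ℕ) (hw : ∀ y ∈ w, y < Lk.D.K) :
    evalW (Lk.val v) w = evalW v (w.map Lk.ren) := by
  rw [evalW_map]
  exact Prob.evalW_congr (fun y hy => val_lt v (hw y hy))

theorem OK.interp (h : Lk.OK W oinv Kold ΛA ΛB) (v : ℕ → G) (hW : ∀ w ∈ W, evalW v w = 1)
    (hoinv : ∀ y < Kold, v (oinv y) = (v y)⁻¹) : Lk.D.Interp (Sg v ΛB) (Lk.val v) where
  eps := val_ge v (lt_irrefl _)
  KltKall := by rw [h.Kall]; omega
  pairs := by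
    intro t ht
    rw [h.Dpairs] at ht
    obtain ⟨tc, htc, rfl⟩ := List.mem_map.mp ht
    have h1 := List.all_eq_true.mp h.pairs tc htc
    have hinv : ∀ x < Lk.D.Kall, Lk.val v (Lk.inv x) = (Lk.val v x)⁻¹ := by
      intro x hx
      by_cases hxK : x < Lk.D.K
      · obtain ⟨a, b, c⟩ := h.invK x hxK
        rw [val_lt v a, val_lt v hxK, c, hoinv _ b]
      · have e : x = Lk.D.K := by rw [h.Kall] at hx; omega
        rw [e, h.invE, val_ge v (lt_irrefl _), inv_one]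
    refine pairOK_sound hinv (val_ge v (lt_irrefl _)) (evalW_relsAll hinv ?_) h.relsK h1
    intro r hr
    obtain ⟨a, b⟩ := h.relsIn r hr
    rw [evalW_val v r a]
    exact hW _ b
  sub := by
    intro x hx
    obtain ⟨a, b⟩ := h.sub x (h.isSub x hx)
    rw [val_lt v a]
    exact Subgroup.subset_closure ⟨_, b, rfl⟩
  check := h.check

theorem OK.card_le (h : Lk.OK W oinv Kold ΛA ΛB) (v : ℕ → G) (hW : ∀ w ∈ W, evalW v w = 1)
    (hoinv : ∀ y < Kold, v (oinv y) = (v y)⁻¹) (hB : Finite (Sg v ΛB)) :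
    Finite (Sg v ΛA) ∧ Nat.card (Sg v ΛA) ≤ Lk.n * Nat.card (Sg v ΛB) := by
  have I := h.interp v hW hoinv
  obtain ⟨f1, f2⟩ := I.card_le h.hm h.h0 h.fin (by
    intro x hx
    obtain ⟨a, b, c⟩ := h.invK x hx
    exact ⟨Lk.inv x, a, by rw [val_lt v a, val_lt v hx, c, hoinv _ b]⟩) hB
  have hle : Sg v ΛA ≤ Subgroup.closure (Lk.val v '' {x | x < Lk.D.K}) := by
    unfold Sg
    apply Subgroup.closure_mono
    rintro _ ⟨y, hy, rfl⟩
    obtain ⟨x, hx, rfl⟩ := h.gens y hy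
    exact ⟨x, hx, val_lt v hx⟩
  have f3 : Finite (Sg v ΛA) := Finite.of_injective _ (Subgroup.inclusion_injective hle)
  refine ⟨f3, ?_⟩
  rw [h.count] at f2
  exact le_trans (Nat.card_le_card_of_injective _ (Subgroup.inclusion_injective hle)) f2

end Link2

end Cfsg.Agent.Lib.Helper28.V2
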