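import Cfsg.Agent.Lib.Helper28.V2.TCProb

/-!
# Suborbits: orbits of the subgroup on its cosets (helper28)
-/

set_option autoImplicit false

namespace Cfsg.Agent.Lib.Helper28.V2

/-- orbit data: `oinfo c = parent <<< 22 ||| widx <<< 16 ||| depth <<< 4 ||| oid` -/
structure Orb where
  oinfo : ℕ → ℕ
  roots : List ℕ

namespace Orb

variable (O : Orb)

def oid (c : ℕ) : ℕ := Nat.land (O.oinfo c) 15
def dep (c : ℕ) : ℕ := Nat.land (Nat.shiftRight (O.oinfo c) 4) 4095
def widx (c : ℕ) : ℕ := Nat.land (Nat.shiftRight (O.oinfo c) 16) 63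
def opar (c : ℕ) : ℕ := Nat.shiftRight (O.oinfo c) 22

variable {α : Type} [DecidableEq α] (Q : Prob α)

/-- the words of the subgroup generators -/
def subW : List (List ℕ) := Q.subE.map (WExp.word Q.P.inv)

/-- the words of the subgroup generators and their inverses -/
def hw : List (List ℕ) := subW Q ++ (subW Q).map (invrev Q.P.inv)

noncomputable def checkInv (c : ℕ) : Bool :=
  allList (fun w => natCase false (fun t => Nat.beq (O.oid t) (O.oid c)) (ptrace Q.L.pt w c)) (subW Q)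

noncomputable def checkTree (c : ℕ) : Bool :=
  Nat.beq c (nth O.roots Q.n (O.oid c)) ||
    (Nat.blt (O.dep (O.opar c)) (O.dep c) && (Nat.blt (O.opar c) Q.n &&
      Nat.beq (ptrace Q.L.pt (nth (hw Q) [] (O.widx c)) (O.opar c)) (Nat.succ c)))

/-- size of the orbit number `k` -/
noncomputable def count (k : ℕ) : ℕ := countZero (fun c => Nat.xor (O.oid c) k) Q.n 0

structure OK : Prop where
  inv : ∀ c < Q.n, O.checkInv Q c = true
  tree : ∀ c < Q.n, O.checkTree Q c = true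

end Orb

namespace Prob

variable {α : Type} [DecidableEq α] {Q : Prob α} {S : Set (FreeGroup α)}

/-- the subgroup -/
abbrev HS (Q : Prob α) (S : Set (FreeGroup α)) : Subgroup Q.Grp :=
  (Subgroup.closure S).map (PresentedGroup.mk Q.P.rels)

theorem OK.phi_lt (h : Q.OK S) (g : Q.Grp) {c : ℕ} (hc : c < Q.n) : phi h g c < Q.n := by
  obtain ⟨k, rfl⟩ := h.index.2.2.2.2 c hc
  rw [← Equiv.Perm.mul_apply, ← map_mul]
  exact h.index.2.2.1 _

theorem OK.phi_word (h : Q.OK S) (u : List ℕ) (hu : ∀ y ∈ u, y < Q.P.K) (c : ℕ) :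
    phi h (evalW Q.val u)⁻¹ c = Q.L.traceN u c := by
  rw [map_inv, h.phi_evalW u hu, LB.evalW_perm h.valid u (fun y hy => by rw [h.LK]; exact hu y hy)]

theorem OK.subW_mem (h : Q.OK S) (hS1 : ∀ E ∈ Q.subE, E.value Q.P.lfree ∈ S) :
    ∀ u ∈ Orb.subW Q, (∀ y ∈ u, y < Q.P.K) ∧ evalW Q.val u ∈ (HS Q S) := by
  intro u hu
  obtain ⟨E, hE, rfl⟩ := List.mem_map.mp hu
  refine ⟨WExp.word_lt (fun x hx => (h.pd.inv x hx).1) E (h.subK E hE), ?_⟩
  rw [← h.value_eq E (h.subK E hE)]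
  exact Subgroup.mem_map_of_mem _ (Subgroup.subset_closure (hS1 E hE))

theorem OK.hw_mem (h : Q.OK S) (hS1 : ∀ E ∈ Q.subE, E.value Q.P.lfree ∈ S) :
    ∀ u ∈ Orb.hw Q, (∀ y ∈ u, y < Q.P.K) ∧ evalW Q.val u ∈ (HS Q S) := by
  intro u hu
  rcases List.mem_append.mp hu with hu | hu
  · exact h.subW_mem hS1 u hu
  · obtain ⟨w, hw, rfl⟩ := List.mem_map.mp hu
    obtain ⟨h1, h2⟩ := h.subW_mem hS1 w hw
    refine ⟨?_, ?_⟩
    · intro y hy
      obtain ⟨z, hz, rfl⟩ := mem_invrev hy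
      exact (h.pd.inv z (h1 z hz)).1
    · have hinv : ∀ x < Q.P.K, Q.val (Q.P.inv x) = (Q.val x)⁻¹ := by
        intro x hx
        rw [val_lt hx, val_lt (h.pd.inv x hx).1]
        exact h.base.1 x hx
      rw [evalW_invrev hinv w h1]
      exact Subgroup.inv_mem _ h2

variable (O : Orb)

theorem OK.oid_inv (h : Q.OK S) (hO : O.OK Q) (hS1 : ∀ E ∈ Q.subE, E.value Q.P.lfree ∈ S)
    (k : Q.Grp) (hk : k ∈ (HS Q S)) : ∀ c < Q.n, O.oid (phi h k c) = O.oid c := by
  let KK : Subgroup Q.Grp :=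
    { carrier := {g | ∀ c < Q.n, O.oid (phi h g c) = O.oid c}
      one_mem' := by intro c _; simp
      mul_mem' := by
        intro a b ha hb c hc
        rw [map_mul, Equiv.Perm.mul_apply, ha _ (h.phi_lt b hc), hb c hc]
      inv_mem' := by
        intro a ha c hc
        have := ha _ (h.phi_lt a⁻¹ hc)
        rw [← Equiv.Perm.mul_apply, ← map_mul, mul_inv_cancel, map_one, Equiv.Perm.one_apply] at this
        exact this.symm }
  have hle : (HS Q S) ≤ KK := by
    rw [Subgroup.map_le_iff_le_comap, Subgroup.closure_le]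
    intro s hs
    obtain ⟨E, hE, rfl⟩ := h.S2 s hs
    show PresentedGroup.mk Q.P.rels (E.value Q.P.lfree) ∈ KK
    rw [← inv_inv (PresentedGroup.mk Q.P.rels (E.value Q.P.lfree))]
    apply KK.inv_mem
    intro c hc
    have hw := WExp.word_lt (fun x hx => (h.pd.inv x hx).1) E (h.subK E hE)
    rw [h.value_eq E (h.subK E hE), h.phi_word _ hw]
    have h1 := allList_iff.mp (hO.inv c hc) (E.word Q.P.inv) (List.mem_map_of_mem hE)
    rw [h.valid.ptrace_eq _ (fun y hy => by rw [h.LK]; exact hw y hy) (by rw [h.Ln]; exact hc),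
      natCase_succ] at h1
    exact eq_of_nbeq h1
  exact hle hk

theorem OK.reach (h : Q.OK S) (hO : O.OK Q) (hS1 : ∀ E ∈ Q.subE, E.value Q.P.lfree ∈ S) :
    ∀ (d c : ℕ), O.dep c = d → c < Q.n → ∃ k ∈ (HS Q S), phi h k (nth O.roots Q.n (O.oid c)) = c := by
  intro d
  induction d using Nat.strong_induction_on with
  | _ d ih =>
    intro c hd hc
    have ht := hO.tree c hc
    unfold Orb.checkTree at ht
    rw [Bool.or_eq_true] at ht
    rcases ht with ht | ht
    · exact ⟨1, Subgroup.one_mem _, by rw [map_one, Equiv.Perm.one_apply]; exact (eq_of_nbeq ht).symm⟩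
    · simp only [Bool.and_eq_true] at ht
      obtain ⟨h1, h2, h3⟩ := ht
      have h1 := lt_of_blt h1
      have h2 := lt_of_blt h2
      have h3 := eq_of_nbeq h3
      obtain ⟨k, hk, e⟩ := ih _ (by rw [← hd]; exact h1) (O.opar c) rfl h2
      have hu : (∀ y ∈ nth (Orb.hw Q) [] (O.widx c), y < Q.P.K) ∧
          evalW Q.val (nth (Orb.hw Q) [] (O.widx c)) ∈ (HS Q S) :=
        nth_prop (P := fun u : List ℕ => (∀ y ∈ u, y < Q.P.K) ∧ evalW Q.val u ∈ (HS Q S))
          ⟨by simp, by simp [Subgroup.one_mem]⟩ (h.hw_mem hS1) _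
      rw [h.valid.ptrace_eq _ (fun y hy => by rw [h.LK]; exact hu.1 y hy) (by rw [h.Ln]; exact h2)] at h3
      have h4 : Q.L.traceN (nth (Orb.hw Q) [] (O.widx c)) (O.opar c) = c := by omega
      rw [← h.phi_word _ hu.1] at h4
      have hk2 : (evalW Q.val (nth (Orb.hw Q) [] (O.widx c)))⁻¹ ∈ (HS Q S) := Subgroup.inv_mem _ hu.2
      have hoid : O.oid c = O.oid (O.opar c) := by
        have := h.oid_inv O hO hS1 _ hk2 _ h2
        rwa [h4] at this
      refine ⟨_ * k, Subgroup.mul_mem _ hk2 hk, ?_⟩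
      rw [map_mul, Equiv.Perm.mul_apply, hoid, e, h4]

/-- the coset map to points -/
noncomputable def toPt (h : Q.OK S) : Q.Grp ⧸ (HS Q S) → ℕ :=
  fun q => Quotient.liftOn' q (fun g => phi h g 0) (by
    intro a b hab
    have hab' : a⁻¹ * b ∈ (HS Q S) := QuotientGroup.leftRel_apply.mp hab
    have := h.index.2.2.2.1 _ hab'
    show phi h a 0 = phi h b 0
    have e : b = a * (a⁻¹ * b) := by group
    rw [e, map_mul, Equiv.Perm.mul_apply, this])

theorem toPt_mk (h : Q.OK S) (g : Q.Grp) : toPt h (g : Q.Grp ⧸ (HS Q S)) = phi h g 0 := rfl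

theorem toPt_injective (h : Q.OK S) : Function.Injective (toPt h) := by
  intro a b
  induction a using QuotientGroup.induction_on with
  | H a =>
    induction b using QuotientGroup.induction_on with
    | H b =>
      intro hab
      rw [toPt_mk, toPt_mk] at hab
      rw [QuotientGroup.eq]
      apply h.index.2.1
      rw [map_mul, Equiv.Perm.mul_apply, ← hab, ← Equiv.Perm.mul_apply, ← map_mul, inv_mul_cancel, map_one,
        Equiv.Perm.one_apply]

theorem toPt_smul (h : Q.OK S) (k : (HS Q S)) (q : Q.Grp ⧸ (HS Q S)) : toPt h (k • q) = phi h k.1 (toPt h q) := by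
  induction q using QuotientGroup.induction_on with
  | H g =>
    have e : k • (g : Q.Grp ⧸ (HS Q S)) = ((k.1 * g : Q.Grp) : Q.Grp ⧸ (HS Q S)) := rfl
    rw [e, toPt_mk, toPt_mk, map_mul, Equiv.Perm.mul_apply]

/-- the suborbit theorem -/
theorem OK.suborbit (h : Q.OK S) (hO : O.OK Q) (hS1 : ∀ E ∈ Q.subE, E.value Q.P.lfree ∈ S)
    (k : ℕ) (hr : nth O.roots Q.n k < Q.n) (hrk : O.oid (nth O.roots Q.n k) = k) :
    ∃ q : Q.Grp ⧸ (HS Q S), (MulAction.orbit (HS Q S) q).ncard = O.count Q k ∧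
      toPt h '' (MulAction.orbit (HS Q S) q) = {c | c < Q.n ∧ O.oid c = k} := by
  obtain ⟨g, hg⟩ := h.index.2.2.2.2 _ hr
  refine ⟨(g : Q.Grp ⧸ (HS Q S)), ?_⟩
  have himg : toPt h '' (MulAction.orbit (HS Q S) (g : Q.Grp ⧸ (HS Q S))) = {c | c < Q.n ∧ O.oid c = k} := by
    ext c
    constructor
    · rintro ⟨q, ⟨x, rfl⟩, rfl⟩
      show toPt h (x • (g : Q.Grp ⧸ (HS Q S))) < Q.n ∧ O.oid (toPt h (x • (g : Q.Grp ⧸ (HS Q S)))) = k
      rw [toPt_smul, toPt_mk, hg]
      exact ⟨h.phi_lt _ hr, by rw [h.oid_inv O hO hS1 _ x.2 _ hr, hrk]⟩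
    · rintro ⟨hc, hk⟩
      obtain ⟨x, hx, e⟩ := h.reach O hO hS1 _ c rfl hc
      refine ⟨(⟨x, hx⟩ : (HS Q S)) • (g : Q.Grp ⧸ (HS Q S)), ⟨⟨x, hx⟩, rfl⟩, ?_⟩
      rw [toPt_smul, toPt_mk, hg, ← hk]
      exact e
  refine ⟨?_, himg⟩
  rw [← Set.ncard_image_of_injective _ (toPt_injective h), himg]
  unfold Orb.count
  rw [countZero_eq, zero_add, ← Set.ncard_coe_finset]
  congr 1
  ext c
  simp only [Set.mem_ofPred_eq, Finset.coe_filter, Finset.mem_range]
  constructor
  · rintro ⟨a, b⟩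
    exact ⟨a, by rw [b]; exact Nat.xor_self k⟩
  · rintro ⟨a, b⟩
    exact ⟨a, Nat.xor_eq_zero_iff.mp b⟩

end Prob

end Cfsg.Agent.Lib.Helper28.V2
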